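import Cfsg.Agent.H6.Fi24.C2.D1

set_option autoImplicit false
set_option maxRecDepth 100000
set_option Elab.async false

namespace Cfsg.H6.Fi24.C2

theorem b4 : allR (blk get gs (gwB gwh 191) gd 730877630508623121816105603200201502214911215887110255979425565901056) 2651 648 = true := by decide +kernel

theorem b5 : allR (blk get gs (gwB gwh 191) gd 730877630508623121816105603200201502214911215887110255979425565901056) 3299 633 = true := by decide +kernel

theorem b6 : allR (blk get gs (gwB gwh 191) gd 730877630508623121816105603200201502214911215887110255979425565901056) 3932 631 = true := by decide +kernel

theorem b7 : allR (blk get gs (gwB gwh 191) gd 730877630508623121816105603200201502214911215887110255979425565901056) 4563 635 = true := by decide +kernel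

end Cfsg.H6.Fi24.C2
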