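import Cfsg.Agent.H6.Fi24.C2.D1

set_option autoImplicit false
set_option maxRecDepth 100000
set_option Elab.async false

namespace Cfsg.H6.Fi24.C2

theorem c2 : allR (clo get gc 28431 377920 445) 3124 1326 = true := by decide +kernel

end Cfsg.H6.Fi24.C2
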